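import Mathlib
import Cfsg.Agent.Lib.FCRep.Basic

/-!
Frobenius complements from fixed-point-free linear actions on finite abelian groups (helper77).
-/

set_option autoImplicit false

namespace CfsgLib.Components2

/-- A monoid action by additive endomorphisms of a finite group, every non-trivial element of which
fixes only `0`, makes the acting group a Frobenius complement. -/
theorem exists_fc_of_addEnd {H V : Type*} [Group H] [Finite H] [Nontrivial H] [AddCommGroup V]
    [Finite V] [Nontrivial V] (ρ : H →* AddMonoid.End V)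
    (hρ : ∀ h : H, h ≠ 1 → ∀ v : V, ρ h v = v → v = 0) :
    ∃ (L : Type) (_ : Group L) (_ : Finite L) (C : Subgroup L),
      Cfsg.IsFrobeniusComplement C ∧ Nonempty (H ≃* C) := by
  haveI : Finite (Multiplicative V) := Finite.of_equiv _ Multiplicative.ofAdd
  let φ : H →* MulAut (Multiplicative V) :=
    { toFun := fun h => AddEquiv.toMultiplicative
        { toFun := ρ h
          invFun := ρ h⁻¹
          left_inv := fun v => by
            have := DFunLike.congr_fun (map_mul ρ h⁻¹ h) v
            rw [inv_mul_cancel, map_one] at this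
            exact this.symm
          right_inv := fun v => by
            have := DFunLike.congr_fun (map_mul ρ h h⁻¹) v
            rw [mul_inv_cancel, map_one] at this
            exact this.symm
          map_add' := map_add (ρ h) }
      map_one' := MulEquiv.ext fun v => congrArg Multiplicative.ofAdd
        (DFunLike.congr_fun (map_one ρ) v.toAdd)
      map_mul' := fun a b => MulEquiv.ext fun v => congrArg Multiplicative.ofAdd
        (DFunLike.congr_fun (map_mul ρ a b) v.toAdd) }
  refine CfsgLib.FCRep.exists_isFrobeniusComplement φ fun h h1 v hv => ?_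
  have h2 : ρ h v.toAdd = v.toAdd := congrArg Multiplicative.toAdd hv
  exact congrArg Multiplicative.ofAdd (hρ h h1 v.toAdd h2)

/-- The matrix version of `exists_fc_of_addEnd`. -/
theorem exists_fc_of_matrix {H : Type*} [Group H] [Finite H] [Nontrivial H] {m : Type*} [Fintype m]
    [DecidableEq m] [Nonempty m] {R : Type*} [CommRing R] [Finite R] [Nontrivial R]
    (M : H →* Matrix m m R)
    (hM : ∀ h : H, h ≠ 1 → ∀ v : m → R, (M h).mulVec v = v → v = 0) :
    ∃ (L : Type) (_ : Group L) (_ : Finite L) (C : Subgroup L),
      Cfsg.IsFrobeniusComplement C ∧ Nonempty (H ≃* C) :=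
  exists_fc_of_addEnd (V := m → R)
    { toFun := fun h => (M h).mulVecLin.toAddMonoidHom
      map_one' := AddMonoidHom.ext fun v => by
        show (M 1).mulVec v = v
        rw [map_one, Matrix.one_mulVec]
      map_mul' := fun a b => AddMonoidHom.ext fun v => by
        show (M (a * b)).mulVec v = (M a).mulVec ((M b).mulVec v)
        rw [map_mul, Matrix.mulVec_mulVec] } hM

/-- For every `n ≠ 0` some prime `p > 2` has a unit of order `n` modulo `p`. -/
theorem exists_prime_orderOf {n : ℕ} (hn : n ≠ 0) :
    ∃ (p : ℕ) (_ : Fact p.Prime) (ζ : (ZMod p)ˣ), 2 < p ∧ orderOf ζ = n := by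
  obtain ⟨p, hp, hp2, hmod⟩ := Nat.exists_prime_gt_modEq_one 2 hn
  haveI := Fact.mk hp
  have hd : n ∣ Nat.card (ZMod p)ˣ := by
    rw [Nat.card_eq_fintype_card, ZMod.card_units]
    exact (Nat.modEq_iff_dvd' hp.one_le).1 hmod.symm
  obtain ⟨g, hg⟩ := IsCyclic.exists_ofOrder_eq_natCard (α := (ZMod p)ˣ)
  obtain ⟨d, hd'⟩ := hd
  refine ⟨p, ‹_›, g ^ d, hp2, ?_⟩
  rw [orderOf_pow' g (by rintro rfl; rw [mul_zero] at hd'; exact Nat.card_pos.ne' hd'), hg, hd',
    Nat.gcd_mul_left_left, Nat.mul_div_cancel _ (Nat.pos_of_ne_zero (by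
      rintro rfl; rw [mul_zero] at hd'; exact Nat.card_pos.ne' hd'))]

end CfsgLib.Components2
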