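import Mathlib

/-!
Finite abelian groups of odd order with a quaternion pair of endomorphisms (helper77).
-/

set_option autoImplicit false

namespace CfsgLib.Components2

universe u

/-- A pair `I, J` with `I² = J² = -1` anticommuting makes the order of a finite abelian group of odd
order a square. -/
theorem isSquare_card_of_quaternion_pair {V : Type u} [AddCommGroup V] [Finite V]
    (hodd : Odd (Nat.card V)) (I J : V →+ V) (hI : ∀ v, I (I v) = -v) (hJ : ∀ v, J (J v) = -v)
    (hIJ : ∀ v, I (J v) = -J (I v)) : IsSquare (Nat.card V) := by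
  suffices H : ∀ (n : ℕ) (V : Type u) [AddCommGroup V] [Finite V], Nat.card V = n → Odd n →
      ∀ I J : V →+ V, (∀ v, I (I v) = -v) → (∀ v, J (J v) = -v) → (∀ v, I (J v) = -J (I v)) →
      IsSquare (Nat.card V) from H _ V rfl hodd I J hI hJ hIJ
  clear! V
  intro n
  induction n using Nat.strong_induction_on with
  | _ n ih =>
  intro V _ _ hn hodd I J hI hJ hIJ
  by_cases h1 : n = 1
  · exact ⟨1, by rw [hn, h1]⟩
  obtain ⟨p, hp, hpn⟩ := Nat.exists_prime_and_dvd h1
  haveI := Fact.mk hp
  have hp2 : p ≠ 2 := by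
    rintro rfl
    exact (Nat.not_even_iff_odd.2 hodd) (even_iff_two_dvd.2 hpn)
  let m : V →+ V := nsmulAddMonoidHom p
  have hm : ∀ v, m v = p • v := fun _ => rfl
  have hcard : Nat.card m.ker * Nat.card m.range = Nat.card V := by
    rw [m.ker.card_eq_card_quotient_mul_card_addSubgroup, mul_comm,
      Nat.card_congr (QuotientAddGroup.quotientKerEquivRange m).toEquiv]
  -- the layer killed by `p`
  have hW : IsSquare (Nat.card m.ker) := by
    obtain ⟨a, b, hab⟩ := Nat.sq_add_sq_zmodEq p (-1)
    have hab' : (p : ℤ) ∣ (a : ℤ) ^ 2 + (b : ℤ) ^ 2 + 1 := by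
      have h := (Int.modEq_iff_dvd.1 hab.2.2.symm)
      have e : (a : ℤ) ^ 2 + (b : ℤ) ^ 2 + 1 = (a : ℤ) ^ 2 + (b : ℤ) ^ 2 - (-1) := by ring
      rw [e]
      exact h
    obtain ⟨q, hq⟩ := hab'
    obtain ⟨half, hhalf⟩ : ∃ half : ℤ, (p : ℤ) ∣ 2 * half - 1 := by
      obtain ⟨s, hs⟩ := hp.odd_of_ne_two hp2
      exact ⟨(s : ℤ) + 1, 1, by push_cast [hs]; ring⟩
    have hpz : ∀ v ∈ m.ker, ∀ z : ℤ, ((p : ℤ) * z) • v = 0 := by
      intro v hv z
      have hv' : p • v = 0 := (hm v).symm.trans hv
      rw [mul_comm, mul_smul, natCast_zsmul, hv', smul_zero]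
    let T : V →+ V := (a : ℤ) • I + (b : ℤ) • J
    let K : V →+ V := I.comp J
    have hT : ∀ v, T v = (a : ℤ) • I v + (b : ℤ) • J v := fun _ => rfl
    have hK : ∀ v, K v = I (J v) := fun _ => rfl
    have hTT : ∀ v ∈ m.ker, T (T v) = v := by
      intro v hv
      have e : T (T v) = v - ((a : ℤ) ^ 2 + (b : ℤ) ^ 2 + 1) • v := by
        simp only [hT, map_add, map_zsmul, hI, hJ, hIJ, smul_add, smul_neg, smul_smul, add_smul,
          one_smul, sq]
        module
      rw [e, hq, hpz v hv q, sub_zero]
    have hKK : ∀ v, K (K v) = -v := fun v => by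
      simp only [hK, hIJ, map_neg, hI, hJ, neg_neg]
    have hTK : ∀ v, T (K v) = -K (T v) := fun v => by
      simp only [hT, hK, map_add, map_neg, map_zsmul, hI, hJ, hIJ, neg_neg]
      module
    let Wp : AddSubgroup V := m.ker ⊓ (T - AddMonoidHom.id V).ker
    have hWp : ∀ v, v ∈ Wp ↔ v ∈ m.ker ∧ T v = v := fun v => by
      simp [Wp, AddMonoidHom.mem_ker, sub_eq_zero]
    have hmemT : ∀ v ∈ m.ker, T v ∈ m.ker := by
      intro v hv
      rw [AddMonoidHom.mem_ker, hm, ← map_nsmul, ← hm, (AddMonoidHom.mem_ker).1 hv, map_zero]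
    have hmemK : ∀ v ∈ m.ker, K v ∈ m.ker := by
      intro v hv
      rw [AddMonoidHom.mem_ker, hm, ← map_nsmul, ← hm, (AddMonoidHom.mem_ker).1 hv, map_zero]
    let f : m.ker → Wp × Wp := fun v =>
      (⟨v + T v, (hWp _).2 ⟨add_mem v.2 (hmemT v v.2), by
          rw [map_add, hTT v v.2, add_comm]⟩⟩,
        ⟨K (v - T v), (hWp _).2 ⟨hmemK _ (sub_mem v.2 (hmemT v v.2)), by
          rw [hTK, map_sub, hTT v v.2, ← map_neg, neg_sub]⟩⟩)
    have hinv : ∀ v ∈ m.ker, half • ((2 : ℤ) • v) = v := by
      intro v hv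
      obtain ⟨c, hc⟩ := hhalf
      rw [smul_smul, show half * 2 = (p : ℤ) * c + 1 by linear_combination hc, add_smul, hpz v hv,
        one_smul, zero_add]
    have hbij : Function.Bijective f := by
      constructor
      · intro v w hvw
        have e1 : (v : V) + T v = w + T w := congrArg (fun x => ((x.1 : Wp) : V)) hvw
        have e2 : K ((v : V) - T v) = K ((w : V) - T w) := congrArg (fun x => ((x.2 : Wp) : V)) hvw
        have e3 : (v : V) - T v = w - T w := by
          have := congrArg K e2
          rw [hKK, hKK] at this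
          exact neg_injective this
        have e4 : (2 : ℤ) • (v : V) = (2 : ℤ) • (w : V) := by
          have h := congrArg₂ (· + ·) e1 e3
          rw [add_add_sub_cancel, add_add_sub_cancel] at h
          rw [two_zsmul, two_zsmul, h]
        exact Subtype.ext (by rw [← hinv v v.2, e4, hinv w w.2])
      · rintro ⟨⟨u, hu⟩, ⟨w, hw⟩⟩
        obtain ⟨hu1, hu2⟩ := (hWp u).1 hu
        obtain ⟨hw1, hw2⟩ := (hWp w).1 hw
        have hmem : u - K w ∈ m.ker := sub_mem hu1 (hmemK w hw1)
        refine ⟨⟨half • (u - K w), zsmul_mem hmem _⟩, Prod.ext (Subtype.ext ?_) (Subtype.ext ?_)⟩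
        · show half • (u - K w) + T (half • (u - K w)) = u
          rw [map_zsmul, map_sub, hu2, hTK, hw2, ← smul_add]
          rw [show u - K w + (u - -K w) = (2 : ℤ) • u by module]
          exact hinv u hu1
        · show K (half • (u - K w) - T (half • (u - K w))) = w
          rw [map_zsmul T, map_sub T, hu2, hTK, hw2, ← smul_sub, map_zsmul]
          rw [show u - K w - (u - -K w) = -((2 : ℤ) • K w) by module, map_neg, map_zsmul, hKK,
            ]
          simp only [smul_neg, neg_neg]
          exact hinv w hw1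
    refine ⟨Nat.card Wp, ?_⟩
    rw [← Nat.card_prod]
    exact Nat.card_congr (Equiv.ofBijective f hbij)
  -- the image of multiplication by `p`
  have hR : IsSquare (Nat.card m.range) := by
    have hker : 1 < Nat.card m.ker := by
      obtain ⟨x, hx⟩ := exists_prime_addOrderOf_dvd_card' (G := V) p (hn.symm ▸ hpn)
      have hxk : x ∈ m.ker := by
        rw [AddMonoidHom.mem_ker, hm]
        exact hx ▸ addOrderOf_nsmul_eq_zero x
      rw [Finite.one_lt_card_iff_nontrivial]
      refine ⟨⟨⟨x, hxk⟩, 0, fun h => ?_⟩⟩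
      rw [show x = 0 from congrArg Subtype.val h, addOrderOf_zero] at hx
      exact hp.one_lt.ne hx
    have hlt : Nat.card m.range < n := by
      rw [← hn, ← hcard]
      exact lt_mul_of_one_lt_left Nat.card_pos hker
    have hdvd : Nat.card m.range ∣ n := ⟨Nat.card m.ker, by rw [← hn, ← hcard, mul_comm]⟩
    have hmap : ∀ F : V →+ V, ∀ v ∈ m.range, F v ∈ m.range := by
      rintro F _ ⟨v, rfl⟩
      exact ⟨F v, by rw [hm, hm, map_nsmul]⟩
    exact ih _ hlt m.range rfl (hodd.of_dvd_nat hdvd)
      ((I.comp m.range.subtype).codRestrict m.range fun v => hmap I v v.2)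
      ((J.comp m.range.subtype).codRestrict m.range fun v => hmap J v v.2)
      (fun v => Subtype.ext (hI v)) (fun v => Subtype.ext (hJ v)) (fun v => Subtype.ext (hIJ v))
  rw [← hcard]
  exact hW.mul hR

/-- A quaternion pair in a ring gives a homomorphism from the quaternion group of order 8. -/
def quaternionHom {R : Type*} [Ring R] (I J : R) (hI : I * I = -1) (hJ : J * J = -1)
    (hIJ : I * J = -(J * I)) : QuaternionGroup 2 →* R where
  toFun q := match q with
    | .a i => I ^ i.val
    | .xa i => J * I ^ i.val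
  map_one' := by
    show I ^ (0 : ZMod (2 * 2)).val = 1
    simp
  map_mul' := by
    have h4 : I ^ 4 = 1 := by
      rw [show (4 : ℕ) = 2 + 2 from rfl, pow_add, pow_two, hI]; simp
    have hmod : ∀ a b : ℕ, a % 4 = b % 4 → I ^ a = I ^ b := by
      intro a b h
      rw [pow_eq_pow_mod a h4, pow_eq_pow_mod b h4, h]
    have hJI : ∀ k : ℕ, I ^ k * J = J * I ^ (3 * k) := by
      intro k
      induction k with
      | zero => simp
      | succ k ih =>
        rw [pow_succ', mul_assoc, ih, ← mul_assoc, hIJ, Nat.mul_succ]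
        rw [show 3 * k + 3 = 2 + (1 + 3 * k) by omega, pow_add, pow_add, pow_one, pow_two, hI]
        simp [mul_assoc]
    rintro (i | i) (j | j)
    · simp only [QuaternionGroup.a_mul_a, ← pow_add]
      exact hmod _ _ (by rw [ZMod.val_add]; omega)
    · simp only [QuaternionGroup.a_mul_xa]
      rw [← mul_assoc, hJI, mul_assoc, ← pow_add]
      congr 1
      refine hmod _ _ ?_
      revert i j; decide
    · simp only [QuaternionGroup.xa_mul_a]
      rw [mul_assoc, ← pow_add]
      congr 1
      exact hmod _ _ (by rw [ZMod.val_add]; omega)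
    · simp only [QuaternionGroup.xa_mul_xa]
      rw [mul_assoc J, ← mul_assoc _ J, hJI, mul_assoc, ← pow_add, ← mul_assoc, hJ, ← hI,
        show I * I = I ^ (1 + 1) from (by rw [pow_add, pow_one]), ← pow_add]
      refine hmod _ _ ?_
      revert i j; decide

end CfsgLib.Components2
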