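import Cfsg.Agent.Lib.Hall.Solvability
import Cfsg.Agent.Lib.CharTheory.Burnside
import Cfsg.Agent.Lib.ClassGraph.Basic
import Cfsg.Agent.Lib.Involutions.Counting
import Cfsg.Agent.Lib.Cores.PCore

/-!
Sizes of classes of `p`-singular elements: two elements of order `p` always have class sizes with
adjacent prime divisors.
-/

set_option autoImplicit false

namespace CfsgLib.Components2.SingularGraph

open Cfsg

variable {G : Type*} [Group G]

/-- The class size. -/
noncomputable abbrev csz (x : G) : ℕ := (Subgroup.centralizer ({x} : Set G)).index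

theorem csz_conj (x g : G) : csz (g * x * g⁻¹) = csz x := by
  rw [csz, csz, show Subgroup.centralizer ({g * x * g⁻¹} : Set G) =
    (Subgroup.centralizer ({x} : Set G)).map (MulAut.conj g).toMonoidHom from ?_]
  · exact Subgroup.index_map_equiv _ (MulAut.conj g)
  ext y
  rw [Subgroup.mem_centralizer_singleton_iff]
  constructor
  · intro h
    refine ⟨g⁻¹ * y * g, Subgroup.mem_centralizer_singleton_iff.2 ?_, by simp [mul_assoc]⟩
    calc g⁻¹ * y * g * x = g⁻¹ * (y * (g * x * g⁻¹)) * g := by group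
      _ = g⁻¹ * (g * x * g⁻¹ * y) * g := by rw [h]
      _ = x * (g⁻¹ * y * g) := by group
  · rintro ⟨c, hc, rfl⟩
    have hc' := Subgroup.mem_centralizer_singleton_iff.1 hc
    show g * c * g⁻¹ * (g * x * g⁻¹) = g * x * g⁻¹ * (g * c * g⁻¹)
    calc g * c * g⁻¹ * (g * x * g⁻¹) = g * (c * x) * g⁻¹ := by group
      _ = g * (x * c) * g⁻¹ := by rw [hc']
      _ = _ := by group

theorem centralizer_le_of_mem_zpowers {x y : G} (h : y ∈ Subgroup.zpowers x) :
    Subgroup.centralizer ({x} : Set G) ≤ Subgroup.centralizer ({y} : Set G) := by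
  intro c hc
  obtain ⟨i, rfl⟩ := Subgroup.mem_zpowers_iff.1 h
  rw [Subgroup.mem_centralizer_singleton_iff] at hc ⊢
  exact (Commute.zpow_right (show Commute c x from hc) i).eq

theorem mem_centralizer_singleton' {a b : G} (h : Commute a b) :
    a ∈ Subgroup.centralizer ({b} : Set G) :=
  Subgroup.mem_centralizer_singleton_iff.2 h.eq

/-- Index of an intersection with the centraliser in a subnormal subgroup. -/
theorem relIndex_dvd_of_isSubnormal [Finite G] (C : Subgroup G) {H : Subgroup G}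
    (hH : H.IsSubnormal) : C.relIndex H ∣ C.index := by
  induction hH with
  | top => rw [Subgroup.relIndex_top_right]
  | step H K hle _ hN ih =>
    refine dvd_trans ?_ ih
    rw [← Subgroup.inf_relIndex_right C H, ← Subgroup.inf_relIndex_right C K]
    set H' := H.subgroupOf K
    set C' := C.subgroupOf K
    have h1 : (C ⊓ H).relIndex H = C'.relIndex H' := by
      rw [Subgroup.inf_relIndex_right]
      exact (Subgroup.relIndex_subgroupOf hle).symm
    have h2 : (C ⊓ K).relIndex K = C'.index := by rw [Subgroup.inf_relIndex_right]; rfl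
    rw [h1, h2]
    calc C'.relIndex H' ∣ C'.relIndex (C' ⊔ H') := ?_
      _ ∣ C'.index := Subgroup.relIndex_dvd_index_of_le le_sup_left
    have hc : Nat.card ↥(C' ⊔ H') = Nat.card H' * H'.relIndex C' := by
      rw [← Subgroup.relIndex_bot_left, ← Subgroup.relIndex_bot_left, ← Subgroup.relIndex_sup_right C' H']
      exact (Subgroup.relIndex_mul_relIndex ⊥ H' (C' ⊔ H') bot_le le_sup_right).symm
    have hC' : Nat.card ↥(C' ⊓ H') * H'.relIndex C' = Nat.card C' := by
      rw [← Subgroup.inf_relIndex_right H' C', inf_comm H' C', ← Subgroup.relIndex_bot_left,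
        ← Subgroup.relIndex_bot_left]
      exact Subgroup.relIndex_mul_relIndex ⊥ (C' ⊓ H') C' bot_le inf_le_left
    have hH'' : Nat.card ↥(C' ⊓ H') * C'.relIndex H' = Nat.card H' := by
      rw [← Subgroup.inf_relIndex_right C' H', ← Subgroup.relIndex_bot_left,
        ← Subgroup.relIndex_bot_left]
      exact Subgroup.relIndex_mul_relIndex ⊥ (C' ⊓ H') H' bot_le inf_le_right
    have hS : Nat.card C' * C'.relIndex (C' ⊔ H') = Nat.card ↥(C' ⊔ H') := by
      rw [← Subgroup.relIndex_bot_left, ← Subgroup.relIndex_bot_left]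
      exact Subgroup.relIndex_mul_relIndex ⊥ C' (C' ⊔ H') bot_le le_sup_left
    refine ⟨1, ?_⟩
    rw [mul_one]
    apply Nat.eq_of_mul_eq_mul_left (Nat.card_pos (α := C'))
    rw [hS, hc, ← hH'', ← hC']
    ring

variable [Finite G] {p : ℕ} [hp : Fact p.Prime]

theorem csz_dvd {x y : G} (h : y ∈ Subgroup.zpowers x) : csz y ∣ csz x :=
  Subgroup.index_dvd_of_le (centralizer_le_of_mem_zpowers h)

theorem csz_ne_one (hZ : ¬ p ∣ Nat.card (Subgroup.center G)) {z : G} (hz : orderOf z = p) :
    csz z ≠ 1 := by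
  intro h
  rw [csz, Subgroup.index_eq_one] at h
  have hzc : z ∈ Subgroup.center G := Subgroup.mem_center_iff.2 fun g => by
    exact Subgroup.mem_centralizer_singleton_iff.1 (h ▸ Subgroup.mem_top g)
  exact hZ (hz ▸ Subgroup.orderOf_dvd_natCard _ hzc)

theorem ncard_class (x : G) : {g : G | IsConj x g}.ncard = csz x := by
  have h := CfsgLib.Involutions.card_isConj_mul_card_centralizer x
  rw [← (Subgroup.centralizer ({x} : Set G)).index_mul_card] at h
  rw [← Nat.card_coe_set_eq]
  exact Nat.eq_of_mul_eq_mul_right Nat.card_pos h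

/-- `p`-subgroup version of "some point of an orbit of size prime to `q` is fixed". -/
theorem exists_conj_commute {q : ℕ} [Fact q.Prime] {Q : Subgroup G} (hQ : IsPGroup q Q) {x : G}
    (hx : ¬ q ∣ csz x) : ∃ g : G, ∀ u ∈ Q, Commute (g * x * g⁻¹) u := by
  have hc : ¬ q ∣ Nat.card (G ⧸ Subgroup.centralizer ({x} : Set G)) := hx
  obtain ⟨v, hv⟩ := hQ.nonempty_fixed_point_of_prime_not_dvd_card _ hc
  obtain ⟨g, rfl⟩ := QuotientGroup.mk_surjective v
  refine ⟨g, fun u hu => ?_⟩
  have h := hv ⟨u, hu⟩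
  change ((u * g : G) : G ⧸ Subgroup.centralizer ({x} : Set G)) = (g : G) at h
  have h' := Subgroup.mem_centralizer_singleton_iff.1 (QuotientGroup.eq.1 h)
  show g * x * g⁻¹ * u = u * (g * x * g⁻¹)
  calc g * x * g⁻¹ * u = u * g * ((u * g)⁻¹ * g * x) * g⁻¹ * u := by group
    _ = u * g * (x * ((u * g)⁻¹ * g)) * g⁻¹ * u := by rw [h']
    _ = u * (g * x * g⁻¹) := by group

/-- A prime-to-`p` element times a commuting element of order `p`. -/
theorem singular_mul {y v : G} (hy : orderOf y = p) (hv : (orderOf v).Coprime p) (h : Commute y v) :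
    p ∣ orderOf (y * v) ∧ y ∈ Subgroup.zpowers (y * v) ∧
      Subgroup.centralizer ({y * v} : Set G) ≤ Subgroup.centralizer ({v} : Set G) := by
  have hcop : (orderOf y).Coprime (orderOf v) := hy ▸ hv.symm
  have ho : orderOf (y * v) = p * orderOf v := by
    rw [h.orderOf_mul_eq_mul_orderOf_of_coprime hcop, hy]
  have hmem : ∀ a b : G, Commute a b → (orderOf a).Coprime (orderOf b) →
      a ∈ Subgroup.zpowers (a * b) := by
    intro a b hab hc
    obtain ⟨m, hm⟩ := exists_pow_eq_self_of_coprime hc.symm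
    have hpw : (a * b) ^ orderOf b = a ^ orderOf b := by
      rw [hab.mul_pow, pow_orderOf_eq_one, mul_one]
    have h := pow_mem (pow_mem (Subgroup.mem_zpowers (a * b)) (orderOf b)) m
    rwa [hpw, hm] at h
  refine ⟨ho ▸ dvd_mul_right _ _, hmem y v h hcop, centralizer_le_of_mem_zpowers ?_⟩
  rw [h.eq]
  exact hmem v y h.symm hcop.symm

/-- The core: commuting elements of order `p` whose class sizes have no linked primes. -/
theorem false_of_separated (hZ : ¬ p ∣ Nat.card (Subgroup.center G)) {y z : G}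
    (hy : orderOf y = p) (hz : orderOf z = p) (hcomm : Commute y z) (hlt : csz y < csz z)
    (hcop : (csz y).Coprime (csz z))
    (hno : ∀ x : G, p ∣ orderOf x → (csz x).Coprime (csz y) ∨ (csz x).Coprime (csz z)) : False := by
  classical
  have hyp : y ^ p = 1 := hy ▸ pow_orderOf_eq_one y
  have hzp : z ^ p = 1 := hz ▸ pow_orderOf_eq_one z
  have hy1 : csz y ≠ 1 := csz_ne_one hZ hy
  set Cy := Subgroup.centralizer ({y} : Set G) with hCy
  set Cz := Subgroup.centralizer ({z} : Set G) with hCz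
  have hCyCz : ∀ g : G, ∃ a ∈ Cy, ∃ b ∈ Cz, g = a * b := fun g =>
    CfsgLib.Hall.exists_mul_of_coprime_index hcop g
  set S : Set G := {x | IsConj z x}
  have hSnormal : ∀ g x : G, x ∈ S → g * x * g⁻¹ ∈ S := fun g x hx =>
    (show IsConj z x from hx).trans (isConj_iff.2 ⟨g, rfl⟩)
  set w := y * z with hw
  set W : Set G := {x | IsConj w x}
  have hmapS : ∀ g : G, ∀ x ∈ S, g * y * g⁻¹ * x ∈ W := by
    intro g x hx
    obtain ⟨c, hc⟩ := isConj_iff.1 (hSnormal g⁻¹ x hx)
    obtain ⟨a, ha, b, hb, rfl⟩ := hCyCz c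
    have hb' := Subgroup.mem_centralizer_singleton_iff.1 hb
    have ha' := Subgroup.mem_centralizer_singleton_iff.1 ha
    refine isConj_iff.2 ⟨g * a, ?_⟩
    have e : g * y * g⁻¹ * x = g * (y * (g⁻¹ * x * g⁻¹⁻¹)) * g⁻¹ := by group
    rw [e, ← hc, hw]
    have e2 : a * b * z * (a * b)⁻¹ = a * z * a⁻¹ := by
      rw [mul_assoc a b z, hb']; group
    rw [e2]
    calc g * a * (y * z) * (g * a)⁻¹ = g * (a * y) * z * a⁻¹ * g⁻¹ := by group
      _ = g * (y * a) * z * a⁻¹ * g⁻¹ := by rw [ha']
      _ = g * (y * (a * z * a⁻¹)) * g⁻¹ := by group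
  have hle1 : csz z ≤ csz w := by
    rw [← ncard_class, ← ncard_class]
    exact Set.ncard_le_ncard_of_injOn (fun x => y * x) (fun x hx => by
      have := hmapS 1 x hx
      rwa [one_mul, inv_one, mul_one] at this)
      (fun a _ b _ h => mul_left_cancel h)
  have hwk : csz w ∣ csz y * csz z := by
    rw [← CfsgLib.Hall.index_inf_of_coprime hcop]
    refine Subgroup.index_dvd_of_le fun c hc => ?_
    have h1 : Commute c y := Subgroup.mem_centralizer_singleton_iff.1 hc.1
    have h2 : Commute c z := Subgroup.mem_centralizer_singleton_iff.1 hc.2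
    exact mem_centralizer_singleton' (h1.mul_right h2)
  have hw1 : w ≠ 1 := by
    intro h
    have h1 : z = y⁻¹ := eq_inv_of_mul_eq_one_right h
    have : csz z = csz y :=
      Nat.dvd_antisymm (csz_dvd (h1 ▸ inv_mem (Subgroup.mem_zpowers y)))
        (csz_dvd (by rw [h1]; simpa using inv_mem (Subgroup.mem_zpowers y⁻¹)))
    omega
  have hwp : orderOf w = p := orderOf_eq_prime (by rw [hw, hcomm.mul_pow, hyp, hzp, one_mul]) hw1
  have hwz : csz w = csz z := by
    rcases hno w (hwp ▸ dvd_rfl) with h | h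
    · exact le_antisymm
        (Nat.le_of_dvd (Nat.pos_of_ne_zero Subgroup.index_ne_zero_of_finite)
          (h.dvd_of_dvd_mul_left hwk)) hle1
    · have := Nat.le_of_dvd (Nat.pos_of_ne_zero Subgroup.index_ne_zero_of_finite)
        (h.dvd_of_dvd_mul_right hwk)
      change csz w ≤ csz y at this
      omega
  -- translations of the class of `z`
  have himg : ∀ g : G, (fun x => g * y * g⁻¹ * x) '' S = W := by
    intro g
    refine Set.eq_of_subset_of_ncard_le (Set.image_subset_iff.2 fun x hx => hmapS g x hx) ?_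
    rw [Set.ncard_image_of_injective _ (mul_right_injective _), ncard_class, ncard_class, hwz]
  let T : Subgroup G :=
    { carrier := {d | ∀ x ∈ S, d * x ∈ S}
      one_mem' := fun x hx => by rwa [one_mul]
      mul_mem' := fun {a b} ha hb x hx => by rw [mul_assoc]; exact ha _ (hb x hx)
      inv_mem' := fun {a} ha x hx => by
        have hi : (fun u => a * u) '' S = S :=
          Set.eq_of_subset_of_ncard_le (Set.image_subset_iff.2 ha)
            (by rw [Set.ncard_image_of_injective _ (mul_right_injective _)])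
        rw [← hi] at hx
        obtain ⟨u, hu, rfl⟩ := hx
        show a⁻¹ * (a * u) ∈ S
        rwa [inv_mul_cancel_left] }
  have hTn : T.Normal := ⟨fun d hd g x hx => by
    have := hSnormal g _ (hd _ (hSnormal g⁻¹ x hx))
    simpa [mul_assoc] using this⟩
  have hdmem : ∀ g : G, y⁻¹ * (g * y * g⁻¹) ∈ T := by
    intro g x hx
    have h : g * y * g⁻¹ * x ∈ W := hmapS g x hx
    rw [← himg 1] at h
    obtain ⟨u, hu, he⟩ := h
    simp only [one_mul, inv_one, mul_one] at he
    rw [mul_assoc y⁻¹, ← he, inv_mul_cancel_left]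
    exact hu
  have hTdvd : Nat.card T ∣ csz z := by
    have hS : S = QuotientGroup.mk ⁻¹' ((QuotientGroup.mk : G → G ⧸ T) '' S) := by
      refine Set.Subset.antisymm (Set.subset_preimage_image _ _) ?_
      rintro x ⟨u, hu, he⟩
      have ht := QuotientGroup.eq.1 he
      have := (hTn.conj_mem _ ht u) u hu
      simpa [mul_assoc] using this
    rw [← ncard_class, ← Nat.card_coe_set_eq,
      Nat.card_congr ((Equiv.setCongr hS).trans (QuotientGroup.preimageMkEquivSubgroupProdSet T _)),
      Nat.card_prod]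
    exact dvd_mul_right _ _
  have hTC : T ≤ Cy := by
    have h1 : Cy.relIndex T ∣ csz y := relIndex_dvd_of_isSubnormal Cy hTn.isSubnormal
    have h2 : Cy.relIndex T ∣ Nat.card T := Subgroup.relIndex_dvd_card _ _
    exact Subgroup.relIndex_eq_one.1 (Nat.eq_one_of_dvd_coprimes hcop h1 (h2.trans hTdvd))
  -- the conjugates of `y` differ from `y` by elements of order dividing `p`
  have hdp : ∀ g : G, (y⁻¹ * (g * y * g⁻¹)) ^ p = 1 := by
    intro g
    have hc : Commute (y⁻¹ * (g * y * g⁻¹)) y :=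
      Subgroup.mem_centralizer_singleton_iff.1 (hTC (hdmem g))
    have h : (y * (y⁻¹ * (g * y * g⁻¹))) ^ p = 1 := by
      rw [mul_inv_cancel_left, conj_pow, hyp]; simp
    rwa [hc.symm.mul_pow, hyp, one_mul] at h
  have hconjCy : ∀ g : G, g * y * g⁻¹ ∈ Cy := fun g => by
    have := mul_mem (show y ∈ Cy from mem_centralizer_singleton' (Commute.refl y)) (hTC (hdmem g))
    rwa [mul_inv_cancel_left] at this
  have hpz : p ∣ csz z := by
    obtain ⟨g, hg⟩ : ∃ g : G, g * y * g⁻¹ ≠ y := by
      by_contra hcon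
      push Not at hcon
      refine hy1 ?_
      rw [csz, Subgroup.index_eq_one, Subgroup.eq_top_iff']
      intro g
      exact Subgroup.mem_centralizer_singleton_iff.2 (mul_inv_eq_iff_eq_mul.1 (hcon g))
    have hne : y⁻¹ * (g * y * g⁻¹) ≠ 1 := fun h => hg (inv_mul_eq_one.1 h).symm
    exact (orderOf_eq_prime (hdp g) hne ▸ T.orderOf_dvd_natCard (hdmem g)).trans hTdvd
  have hpy : ¬ p ∣ csz y := fun h =>
    hp.out.not_dvd_one (hcop ▸ Nat.dvd_gcd h hpz)
  have hsep : ∀ x : G, p ∣ orderOf x → p ∣ csz x → (csz x).Coprime (csz y) := by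
    intro x hx hpx
    rcases hno x hx with h | h
    · exact h
    · exact absurd (h ▸ Nat.dvd_gcd hpx hpz) hp.out.not_dvd_one
  -- the Sylow subgroup `P` of `Cy`
  obtain ⟨P0'⟩ : Nonempty (Sylow p Cy) := inferInstance
  set P := (P0' : Subgroup Cy).map Cy.subtype with hP
  have hPC : P ≤ Cy := Subgroup.map_subtype_le _
  have hPp : IsPGroup p P := P0'.2.map _
  have hsyl_conj : ∀ S : Subgroup G, S ≤ Cy → IsPGroup p S →
      ∃ c ∈ Cy, ∀ s ∈ S, c * s * c⁻¹ ∈ P := by
    intro S hSC hS
    obtain ⟨R, hR⟩ := IsPGroup.exists_le_sylow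
      (hS.of_equiv (Subgroup.subgroupOfEquivOfLe hSC).symm)
    obtain ⟨c, hc⟩ := MulAction.exists_smul_eq Cy R P0'
    refine ⟨c, c.2, fun s hs => ?_⟩
    refine ⟨c * ⟨s, hSC hs⟩ * c⁻¹, ?_, rfl⟩
    rw [← hc, Sylow.coe_subgroup_smul]
    exact ⟨⟨s, hSC hs⟩, hR (show (⟨s, hSC hs⟩ : Cy) ∈ S.subgroupOf Cy from hs), rfl⟩
  set A := Subgroup.centralizer (P : Set G) ⊓ Cy with hA
  have hcover : Cy ≤ P ⊔ A := by
    rw [← Subgroup.subgroupOf_eq_top]
    by_contra hne
    obtain ⟨g, hg⟩ := CfsgLib.ClassGraph.exists_forall_conj_notMem hne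
    obtain ⟨a, b, hab, ⟨k, hk⟩, hv⟩ :=
      CfsgLib.NormalPComplement.exists_pParts (p := p) (isOfFinOrder_of_finite (g : G))
    set u := (g : G) ^ a
    set v := (g : G) ^ b
    have hgy : Commute (g : G) y := Subgroup.mem_centralizer_singleton_iff.1 g.2
    have hvy : Commute y v := (hgy.pow_left b).symm
    obtain ⟨hxp, hyx, hxv⟩ := singular_mul hy hv hvy
    set x := y * v
    have hnp : ¬ p ∣ csz x := fun h => hy1
      (Nat.eq_one_of_dvd_coprimes (hsep x hxp h) (csz_dvd hyx) dvd_rfl)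
    set Cx := Subgroup.centralizer ({x} : Set G)
    have hCxy : Cx ≤ Cy := centralizer_le_of_mem_zpowers hyx
    have hu : u ∈ Cx := mem_centralizer_singleton'
      ((hgy.pow_left a).mul_right ((Commute.refl (g : G)).pow_pow a b))
    have hup : IsPGroup p (Subgroup.zpowers u) := by
      obtain ⟨j, -, hj⟩ := (Nat.dvd_prime_pow hp.out).1 hk
      exact IsPGroup.of_card (n := j) (by rw [Nat.card_zpowers, hj])
    obtain ⟨R, hR⟩ := IsPGroup.exists_le_sylow
      (hup.of_equiv (Subgroup.subgroupOfEquivOfLe (Subgroup.zpowers_le.2 hu)).symm)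
    set SR := (R : Subgroup Cx).map Cx.subtype
    obtain ⟨c, hc, hc'⟩ := hsyl_conj SR ((Subgroup.map_subtype_le _).trans hCxy) (R.2.map _)
    have hPeq : ∀ t ∈ P, ∃ s ∈ SR, c * s * c⁻¹ = t := by
      have hle : SR.map (MulAut.conj c).toMonoidHom ≤ P := by
        rintro _ ⟨s, hs, rfl⟩; exact hc' s hs
      have heq : SR.map (MulAut.conj c).toMonoidHom = P := by
        refine Subgroup.eq_of_le_of_card_ge hle ?_
        have hcS : Nat.card (SR.map (MulAut.conj c).toMonoidHom) = Nat.card SR :=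
          Subgroup.card_map_of_injective (MulAut.conj c).injective
        rw [hcS, Subgroup.card_map_of_injective Cx.subtype_injective, R.card_eq_multiplicity, hP,
          Subgroup.card_map_of_injective Cy.subtype_injective, P0'.card_eq_multiplicity]
        refine Nat.pow_le_pow_right hp.out.pos (le_of_eq ?_)
        have h1 : ∀ H : Subgroup G, ¬ p ∣ H.index →
            (Nat.card H).factorization p = (Nat.card G).factorization p := fun H hH => by
          rw [← H.card_mul_index, Nat.factorization_mul Nat.card_pos.ne'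
            Subgroup.index_ne_zero_of_finite, Finsupp.add_apply,
            Nat.factorization_eq_zero_of_not_dvd hH, add_zero]
        rw [h1 Cy hpy, h1 Cx hnp]
      intro t ht
      rw [← heq] at ht
      obtain ⟨s, hs, he⟩ := ht
      exact ⟨s, hs, he⟩
    refine hg ⟨c, hc⟩ ?_
    have key : c * (g : G) * c⁻¹ ∈ P ⊔ A := by
      rw [show c * (g : G) * c⁻¹ = (c * u * c⁻¹) * (c * v * c⁻¹) by rw [← hab]; group]
      refine mul_mem (Subgroup.mem_sup_left (hc' u ?_)) (Subgroup.mem_sup_right ⟨?_, ?_⟩)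
      · exact ⟨⟨u, hu⟩, hR (show (⟨u, hu⟩ : Cx) ∈ (Subgroup.zpowers u).subgroupOf Cx from
          Subgroup.mem_zpowers u), rfl⟩
      · refine Subgroup.mem_centralizer_iff.2 fun t ht => ?_
        obtain ⟨s, hs, rfl⟩ := hPeq t ht
        have hsv : Commute s v :=
          Subgroup.mem_centralizer_singleton_iff.1 (hxv (Subgroup.map_subtype_le _ hs))
        calc c * s * c⁻¹ * (c * v * c⁻¹) = c * (s * v) * c⁻¹ := by group
          _ = c * (v * s) * c⁻¹ := by rw [hsv.eq]
          _ = _ := by group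
      · exact (show c * v * c⁻¹ ∈ Cy from
          mul_mem (mul_mem hc (mem_centralizer_singleton' hvy.symm)) (inv_mem hc))
    exact key
  have hPn : ∀ c ∈ Cy, ∀ t ∈ P, c * t * c⁻¹ ∈ P := by
    intro c hc t ht
    have hle : P ⊔ A ≤ Subgroup.normalizer (P : Set G) :=
      sup_le Subgroup.le_normalizer (inf_le_left.trans (Subgroup.centralizer_le_normalizer _))
    exact (Subgroup.mem_normalizer_iff.1 (hle (hcover hc)) t).1 ht
  -- every `p`-element of `Cy` lies in `P`
  have hpP : ∀ u : G, u ∈ Cy → IsPGroup p (Subgroup.zpowers u) → u ∈ P := by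
    intro u hu hup
    obtain ⟨c, hc, hc'⟩ := hsyl_conj _ (Subgroup.zpowers_le.2 hu) hup
    have := hPn c⁻¹ (inv_mem hc) _ (hc' u (Subgroup.mem_zpowers u))
    simpa [mul_assoc] using this
  have hzpow : ∀ u : G, u ^ p = 1 → IsPGroup p (Subgroup.zpowers u) := by
    intro u hu
    obtain ⟨j, -, hj⟩ := (Nat.dvd_prime_pow hp.out).1
      ((pow_one p).symm ▸ orderOf_dvd_of_pow_eq_one hu)
    exact IsPGroup.of_card (n := j) (by rw [Nat.card_zpowers, hj])
  have hyconjP : ∀ g : G, g * y * g⁻¹ ∈ P := fun g =>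
    hpP _ (hconjCy g) (hzpow _ (by rw [conj_pow, hyp]; simp))
  set K := Cy.normalCore with hK
  have hKCy : K ≤ Cy := Subgroup.normalCore_le _
  have hmemK : ∀ x : G, (∀ g : G, Commute x (g * y * g⁻¹)) → x ∈ K := by
    intro x hx g
    refine Subgroup.mem_centralizer_singleton_iff.2 ?_
    have h := hx g⁻¹
    rw [inv_inv] at h
    calc g * x * g⁻¹ * y = g * (x * (g⁻¹ * y * g)) * g⁻¹ := by group
      _ = g * ((g⁻¹ * y * g) * x) * g⁻¹ := by rw [h.eq]
      _ = _ := by group
  have hAK : A ≤ K := fun r hr => hmemK r fun g =>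
    (Subgroup.mem_centralizer_iff.1 hr.1 _ (hyconjP g)).symm
  have hCyKP : ∀ c ∈ Cy, ∃ a ∈ P, ∃ r ∈ A, c = a * r := by
    intro c hc
    have hle : A ≤ Subgroup.normalizer (P : Set G) :=
      inf_le_left.trans (Subgroup.centralizer_le_normalizer _)
    have hm := hcover hc
    rw [← SetLike.mem_coe, Subgroup.coe_mul_of_right_le_normalizer_left P A hle] at hm
    obtain ⟨a, ha, r, hr, rfl⟩ := hm
    exact ⟨a, ha, r, hr, rfl⟩
  -- indices
  obtain ⟨e, he⟩ : ∃ e, K.relIndex Cy = p ^ e := by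
    obtain ⟨n, hn⟩ := IsPGroup.iff_card.1 hPp
    have hdvd : K.relIndex Cy ∣ p ^ n := by
      rw [← hn]
      have h1 : K ⊔ P = Cy := le_antisymm (sup_le hKCy hPC) fun c hc => by
        obtain ⟨a, ha, r, hr, rfl⟩ := hCyKP c hc
        exact mul_mem (Subgroup.mem_sup_right ha) (Subgroup.mem_sup_left (hAK hr))
      conv_lhs => rw [← h1, sup_comm, Subgroup.relIndex_sup_right]
      exact Subgroup.relIndex_dvd_card _ _
    obtain ⟨e, -, he⟩ := (Nat.dvd_prime_pow hp.out).1 hdvd
    exact ⟨e, he⟩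
  have hKidx : K.index = p ^ e * csz y := by
    rw [← Subgroup.relIndex_mul_index hKCy, he]
  have hppow : ∀ n, n ∣ K.index → n.Coprime (csz y) → ∃ j, n = p ^ j := by
    intro n hn hc
    rw [hKidx] at hn
    obtain ⟨j, -, hj⟩ := (Nat.dvd_prime_pow hp.out).1 (hc.dvd_of_dvd_mul_right hn)
    exact ⟨j, hj⟩
  have hxK : ∀ x ∈ P, p ∣ orderOf x → p ∣ csz x → x ∈ K ∧ ∃ j, csz x = p ^ j := by
    intro x hx hxo hxp
    have hc := hsep x hxo hxp
    have hxy : Commute x y := Subgroup.mem_centralizer_singleton_iff.1 (hPC hx)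
    refine ⟨hmemK x fun g => ?_, ?_⟩
    · obtain ⟨a, ha, b, hb, rfl⟩ := CfsgLib.Hall.exists_mul_of_coprime_index
        (H := Subgroup.centralizer ({x} : Set G)) (K := Cy) hc g
      have ha' : Commute a x := Subgroup.mem_centralizer_singleton_iff.1 ha
      have hb' := Subgroup.mem_centralizer_singleton_iff.1 hb
      rw [show a * b * y * (a * b)⁻¹ = a * y * a⁻¹ by rw [mul_assoc a b y, hb']; group]
      exact ((ha'.symm.mul_right hxy).mul_right ha'.symm.inv_right)
    · have hle : A ≤ Subgroup.centralizer ({x} : Set G) := fun r hr =>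
        Subgroup.mem_centralizer_singleton_iff.2 (Subgroup.mem_centralizer_iff.1 hr.1 x hx).symm
      have h1 : A.index = A.relIndex Cy * csz y :=
        (Subgroup.relIndex_mul_index inf_le_right).symm
      have h2 : A.relIndex Cy ∣ Nat.card P := by
        have hCyeq : Cy = P ⊔ A := le_antisymm hcover (sup_le hPC inf_le_right)
        have hAn : P ≤ Subgroup.normalizer (A : Set G) := by
          intro t ht
          refine Subgroup.mem_normalizer_iff.2 fun r => ?_
          have key : ∀ t ∈ P, ∀ r ∈ A, t * r * t⁻¹ ∈ A := by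
            intro t ht r hr
            rw [show t * r = r * t from Subgroup.mem_centralizer_iff.1 hr.1 t ht,
              mul_inv_cancel_right]
            exact hr
          refine ⟨key t ht r, fun h => ?_⟩
          have := key t⁻¹ (inv_mem ht) _ h
          simpa [mul_assoc] using this
        have : (A.subgroupOf Cy).index ∣ Nat.card P := by
          have hnormal : (A.subgroupOf Cy).Normal := by
            rw [Subgroup.normal_subgroupOf_iff inf_le_right]
            intro r c hr hc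
            obtain ⟨a, ha, r', hr', rfl⟩ := hCyKP c hc
            have := (Subgroup.mem_normalizer_iff.1 (hAn ha) _).1 (mul_mem (mul_mem hr' hr) (inv_mem hr'))
            rw [show a * r' * r * (a * r')⁻¹ = a * (r' * r * r'⁻¹) * a⁻¹ by group]
            exact this
          have hs : A.subgroupOf Cy ⊔ P.subgroupOf Cy = ⊤ := by
            rw [← Subgroup.subgroupOf_sup inf_le_right hPC, sup_comm, ← hCyeq,
              Subgroup.subgroupOf_self]
          rw [← Subgroup.relIndex_top_right, ← hs, sup_comm, Subgroup.relIndex_sup_right,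
            ← Nat.card_congr (Subgroup.subgroupOfEquivOfLe hPC).toEquiv]
          exact Subgroup.relIndex_dvd_card _ _
        exact this
      obtain ⟨n, hn⟩ := IsPGroup.iff_card.1 hPp
      have h3 : csz x ∣ p ^ n * csz y := by
        refine (Subgroup.index_dvd_of_le hle).trans ?_
        rw [h1, ← hn]
        exact Nat.mul_dvd_mul_right h2 _
      obtain ⟨j, -, hj⟩ := (Nat.dvd_prime_pow hp.out).1 (hc.dvd_of_dvd_mul_right h3)
      exact ⟨j, hj⟩
  have hzP : z ∈ P := hpP z (mem_centralizer_singleton' hcomm.symm) (hzpow z hzp)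
  obtain ⟨hzK, jz, hjz⟩ := hxK z hzP (hz ▸ dvd_rfl) hpz
  -- a normal `q`-subgroup of `G ⧸ K`
  set π := QuotientGroup.mk' K
  have hcardQ : Nat.card (G ⧸ K) = p ^ e * csz y := hKidx ▸ rfl
  have hQp : pCore p (G ⧸ K) = ⊥ := by
    have hCsyl : IsPGroup p (Cy.map π) := by
      refine IsPGroup.of_card (n := e) ?_
      have h1 := (Cy.map π).card_mul_index
      rw [← Subgroup.index, hKidx, Subgroup.index_map_eq Cy (QuotientGroup.mk'_surjective K)
        (by rw [QuotientGroup.ker_mk']; exact hKCy)] at h1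
      exact Nat.eq_of_mul_eq_mul_right (Nat.pos_of_ne_zero Subgroup.index_ne_zero_of_finite) h1
    have hi : ¬ p ∣ (Cy.map π).index := by
      rw [Subgroup.index_map_eq Cy (QuotientGroup.mk'_surjective K)
        (by rw [QuotientGroup.ker_mk']; exact hKCy)]
      exact hpy
    have hle : pCore p (G ⧸ K) ≤ Cy.map π :=
      CfsgLib.Cores.pCore_le_sylow (hCsyl.toSylow hi)
    have hn : ((pCore p (G ⧸ K)).comap π).Normal := Subgroup.Normal.comap inferInstance π
    have hle2 : (pCore p (G ⧸ K)).comap π ≤ Cy := by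
      refine (Subgroup.comap_mono hle).trans ?_
      rw [Subgroup.comap_map_eq, QuotientGroup.ker_mk']
      exact sup_le le_rfl hKCy
    rw [← Subgroup.map_comap_eq_self_of_surjective (f := π) (QuotientGroup.mk'_surjective K)
      (pCore p (G ⧸ K)), Subgroup.map_eq_bot_iff, QuotientGroup.ker_mk']
    exact Subgroup.normal_le_normalCore.2 hle2
  have hclass : ∀ q : ℕ, q.Prime → q ≠ p → ∀ v : G ⧸ K, (∃ j, orderOf v = q ^ j) →
      ∃ j, (Subgroup.centralizer ({v} : Set (G ⧸ K))).index = p ^ j := by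
    intro q hq hqp v ⟨j, hj⟩
    have : Fact q.Prime := ⟨hq⟩
    have hvq : IsPGroup q (Subgroup.zpowers v) := IsPGroup.of_card (by rw [Nat.card_zpowers, hj])
    have hi : ¬ q ∣ (Cz.map π).index := by
      intro h
      have h' := h.trans (Subgroup.index_map_dvd Cz (QuotientGroup.mk'_surjective K))
      change q ∣ csz z at h'
      rw [hjz] at h'
      exact hqp ((Nat.prime_dvd_prime_iff_eq hq hp.out).1 (hq.dvd_of_dvd_pow h'))
    -- a conjugate of `v` lies in the image of `Cz`
    obtain ⟨f, hf⟩ := hvq.nonempty_fixed_point_of_prime_not_dvd_card ((G ⧸ K) ⧸ Cz.map π) hi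
    obtain ⟨f, rfl⟩ := QuotientGroup.mk_surjective f
    have hmem : f⁻¹ * v * f ∈ Cz.map π := by
      have h := hf ⟨v, Subgroup.mem_zpowers v⟩
      change ((v * f : G ⧸ K) : (G ⧸ K) ⧸ Cz.map π) = (f : G ⧸ K) at h
      have := inv_mem (QuotientGroup.eq.1 h)
      rwa [show ((v * f)⁻¹ * f)⁻¹ = f⁻¹ * v * f by group] at this
    obtain ⟨c, hc, hcv⟩ := hmem
    have hoc : orderOf (π c) = q ^ j := by
      rw [hcv, ← hj]
      exact (SemiconjBy.orderOf_eq f⁻¹ (by simp [SemiconjBy, mul_assoc])).symm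
    obtain ⟨s, m, hm, hsm⟩ :=
      Nat.exists_eq_pow_mul_and_not_dvd (orderOf_pos c).ne' q hq.ne_one
    obtain ⟨r, hr⟩ := exists_pow_eq_self_of_coprime
      (show m.Coprime (orderOf (π c)) by
        rw [hoc]; exact ((hq.coprime_iff_not_dvd.2 hm).symm).pow_right j)
    set v0 := (c ^ m) ^ r
    have hv0 : π v0 = π c := by rw [map_pow, map_pow]; exact hr
    have hv0z : Commute z v0 :=
      ((show Commute c z from Subgroup.mem_centralizer_singleton_iff.1 hc).symm.pow_right m).pow_right r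
    have hv0o : (orderOf v0).Coprime p := by
      have h1 : orderOf v0 ∣ q ^ s := orderOf_dvd_of_pow_eq_one (by
        rw [← pow_mul, ← pow_mul, show m * (r * q ^ s) = orderOf c * r by rw [hsm]; ring, pow_mul,
          pow_orderOf_eq_one, one_pow])
      exact (((Nat.coprime_primes hq hp.out).2 hqp).pow_left s).coprime_dvd_left h1
    obtain ⟨hxo, hzx, hxv⟩ := singular_mul hz hv0o hv0z
    have hpx : p ∣ csz (z * v0) := hpz.trans (csz_dvd hzx)
    have hd : (Subgroup.centralizer ({π c} : Set (G ⧸ K))).index ∣ csz (z * v0) := by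
      have h1 : (Subgroup.centralizer ({z * v0} : Set G)).map π ≤
          Subgroup.centralizer ({π c} : Set (G ⧸ K)) := by
        rintro _ ⟨t, ht, rfl⟩
        rw [← hv0]
        refine Subgroup.mem_centralizer_singleton_iff.2 ?_
        rw [← map_mul, ← map_mul, Subgroup.mem_centralizer_singleton_iff.1 (hxv ht)]
      exact (Subgroup.index_dvd_of_le h1).trans
        (Subgroup.index_map_dvd _ (QuotientGroup.mk'_surjective K))
    have hveq : csz (f⁻¹ * v * f⁻¹⁻¹) = csz v := csz_conj v f⁻¹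
    rw [inv_inv, ← hcv] at hveq
    have hcc : (Subgroup.centralizer ({π c} : Set (G ⧸ K))).index ∣ K.index :=
      ⟨_, ((Subgroup.centralizer ({π c} : Set (G ⧸ K))).index_mul_card).symm⟩
    obtain ⟨i, hi'⟩ := hppow _ hcc ((hsep _ hxo hpx).coprime_dvd_left hd)
    exact ⟨i, (hveq.symm.trans hi' : csz v = p ^ i)⟩
  obtain ⟨q, hq, hqp, hQ⟩ : ∃ q : ℕ, q.Prime ∧ q ≠ p ∧ pCore q (G ⧸ K) ≠ ⊥ := by
    have hnt : Nontrivial (G ⧸ K) := by
      rw [← Finite.one_lt_card_iff_nontrivial, hcardQ]
      have : 1 < csz y := by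
        have : csz y ≠ 0 := Subgroup.index_ne_zero_of_finite
        omega
      exact lt_of_lt_of_le this (Nat.le_mul_of_pos_left _ (pow_pos hp.out.pos e))
    obtain ⟨N, hN⟩ : ∃ N, Minimal (fun N : Subgroup (G ⧸ K) => N.IsSubnormal ∧ N ≠ ⊥) N :=
      Set.Finite.exists_minimal (Set.toFinite _) ⟨⊤, Subgroup.IsSubnormal.top, top_ne_bot⟩
    have : Nontrivial N := (Subgroup.nontrivial_iff_ne_bot N).2 hN.1.2
    have hsimple : IsSimpleGroup N :=
      { eq_bot_or_eq_top_of_normal := fun L hL => by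
          by_cases hLb : L = ⊥
          · exact Or.inl hLb
          refine Or.inr ?_
          have h1 : (L.map N.subtype).IsSubnormal :=
            Subgroup.IsSubnormal.step _ N (Subgroup.map_subtype_le L) hN.1.1
              (by rwa [Subgroup.subgroupOf, Subgroup.comap_map_eq_self_of_injective N.subtype_injective])
          have h2 := hN.2 ⟨h1, fun h => hLb
            ((Subgroup.map_eq_bot_iff_of_injective _ N.subtype_injective).1 h)⟩
            (Subgroup.map_subtype_le L)
          rw [eq_top_iff]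
          intro x _
          obtain ⟨l, hl, hl'⟩ := h2 x.2
          rwa [← Subtype.ext (show (l : G ⧸ K) = x from hl')] }
    have hNp : ¬ IsPGroup p N := fun h => hN.1.2
      (le_bot_iff.1 (hQp ▸ CfsgLib.Cores.le_pCore_of_subnormal hN.1.1 h))
    obtain ⟨q, hq, hqd, hqp⟩ : ∃ q, q.Prime ∧ q ∣ Nat.card N ∧ q ≠ p := by
      by_contra hcon
      push Not at hcon
      exact hNp (IsPGroup.of_card (Nat.eq_prime_pow_of_unique_prime_dvd Nat.card_pos.ne'
        fun {d} hd hdd => hcon d hd hdd))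
    have : Fact q.Prime := ⟨hq⟩
    obtain ⟨v, hv⟩ := exists_prime_orderOf_dvd_card' (G := N) q hqd
    obtain ⟨i, hi⟩ := hclass q hq hqp v ⟨1, by rw [Subgroup.orderOf_coe, hv, pow_one]⟩
    have hd : (Subgroup.centralizer ({v} : Set N)).index ∣ p ^ i := by
      rw [← hi]
      refine dvd_trans (dvd_of_eq ?_) (relIndex_dvd_of_isSubnormal _ hN.1.1)
      show _ = ((Subgroup.centralizer ({(v : G ⧸ K)} : Set (G ⧸ K))).subgroupOf N).index
      congr 1
      ext a
      simp only [Subgroup.mem_subgroupOf, Subgroup.mem_centralizer_singleton_iff]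
      exact Subtype.ext_iff
    obtain ⟨i', -, hi'⟩ := (Nat.dvd_prime_pow hp.out).1 hd
    have hprime := CfsgLib.CharTheory.prime_card_of_index_centralizer_pow p i' hp.out v
      (fun h => hq.ne_one (by rw [← hv, h, orderOf_one])) hi'
    have hcard : Nat.card N = q := ((Nat.prime_dvd_prime_iff_eq hq hprime).1 hqd).symm
    refine ⟨q, hq, hqp, fun h => hN.1.2 (le_bot_iff.1 (h ▸
      CfsgLib.Cores.le_pCore_of_subnormal hN.1.1 (IsPGroup.of_card (n := 1) (by rw [hcard, pow_one]))))⟩
  have : Fact q.Prime := ⟨hq⟩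
  set L := (pCore q (G ⧸ K)).comap π
  have hLn : L.Normal := Subgroup.Normal.comap inferInstance π
  have hKL : K ≤ L := by
    intro x hx
    rw [Subgroup.mem_comap, show π x = 1 from (QuotientGroup.eq_one_iff x).2 hx]
    exact one_mem _
  obtain ⟨R⟩ : Nonempty (Sylow q L) := inferInstance
  set Qs := (R : Subgroup L).map L.subtype with hQs
  have hQsq : IsPGroup q Qs := R.2.map _
  have hLeq : L ≤ K ⊔ Qs := by
    have h1 : K.relIndex L = Nat.card (pCore q (G ⧸ K)) := by
      have hmap : L.map π = pCore q (G ⧸ K) :=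
        Subgroup.map_comap_eq_self_of_surjective (QuotientGroup.mk'_surjective K) _
      rw [← hmap, ← Subgroup.relIndex_bot_left, ← Subgroup.relIndex_comap, MonoidHom.comap_bot,
        QuotientGroup.ker_mk']
    obtain ⟨j, hj⟩ := IsPGroup.iff_card.1 (CfsgLib.Cores.isPGroup_pCore q (G ⧸ K))
    have h2 : (K ⊔ Qs).relIndex L ∣ q ^ j := by
      rw [← hj, ← h1]; exact Subgroup.relIndex_dvd_of_le_left _ le_sup_left
    have h3 : (K ⊔ Qs).relIndex L ∣ (R : Subgroup L).index := by
      refine (Subgroup.relIndex_dvd_of_le_left _ le_sup_right).trans (dvd_of_eq ?_)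
      show (((R : Subgroup L).map L.subtype).subgroupOf L).index = _
      rw [Subgroup.subgroupOf, Subgroup.comap_map_eq_self_of_injective L.subtype_injective]
    exact Subgroup.relIndex_eq_one.1
      (Nat.eq_one_of_dvd_coprimes ((hq.coprime_iff_not_dvd.2 R.not_dvd_index).pow_left j) h2 h3)
  have hfrat : ∀ g : G, ∃ n ∈ Subgroup.normalizer (Qs : Set G), ∃ k ∈ K, g = n * k := by
    intro g
    have h1 := Sylow.normalizer_sup_eq_top R
    have hg : g ∈ Subgroup.normalizer (Qs : Set G) ⊔ K := by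
      have : Subgroup.normalizer (Qs : Set G) ⊔ L ≤ Subgroup.normalizer (Qs : Set G) ⊔ K :=
        sup_le le_sup_left (hLeq.trans (sup_le le_sup_right
          (le_sup_of_le_left Subgroup.le_normalizer)))
      exact this (by rw [hQs, h1]; exact Subgroup.mem_top g)
    obtain ⟨n, hn, k, hk, hnk⟩ := Subgroup.mem_sup_of_normal_right.1 hg
    exact ⟨n, hn, k, hk, hnk.symm⟩
  -- the conjugation of a commuting element by a normalizing element
  have hnconj : ∀ n ∈ Subgroup.normalizer (Qs : Set G), ∀ x : G,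
      (∀ u ∈ Qs, Commute x u) → ∀ u ∈ Qs, Commute (n * x * n⁻¹) u := by
    intro n hn x hx u hu
    have := hx _ ((Subgroup.mem_normalizer_iff''.1 hn u).1 hu)
    show n * x * n⁻¹ * u = u * (n * x * n⁻¹)
    calc n * x * n⁻¹ * u = n * (x * (n⁻¹ * u * n)) * n⁻¹ := by group
      _ = n * ((n⁻¹ * u * n) * x) * n⁻¹ := by rw [this.eq]
      _ = _ := by group
  set P1 := P ⊓ K with hP1
  have hP1mem : ∀ x : G, x ∈ K → IsPGroup p (Subgroup.zpowers x) → x ∈ P1 := fun x hx hxp =>
    ⟨hpP x (hKCy hx) hxp, hx⟩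
  have hP1p : IsPGroup p P1 := hPp.to_le inf_le_left
  have hzpP1 : ∀ x ∈ P1, IsPGroup p (Subgroup.zpowers x) := fun x hx =>
    hP1p.to_le (Subgroup.zpowers_le.2 hx)
  have hP1n : P1.Normal := ⟨fun x hx g => hP1mem _ ((Subgroup.normalCore_normal Cy).conj_mem _ hx.2 g) <| by
    have h := hzpP1 x hx
    obtain ⟨j, hj⟩ := IsPGroup.iff_card.1 h
    refine IsPGroup.of_card (n := j) ?_
    rw [Nat.card_zpowers, ← hj, Nat.card_zpowers]
    exact (SemiconjBy.orderOf_eq g (by simp [SemiconjBy])).symm⟩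
  have hKconj : ∀ k ∈ K, ∀ x ∈ P1, ∃ a ∈ P1, k * x * k⁻¹ = a * x * a⁻¹ := by
    intro k hk x hx
    obtain ⟨a, ha, r, hr, rfl⟩ := hCyKP k (hKCy hk)
    refine ⟨a, ⟨ha, ?_⟩, ?_⟩
    · have := mul_mem hk (inv_mem (hAK hr))
      rwa [mul_inv_cancel_right] at this
    · have hc : r * x = x * r := (Subgroup.mem_centralizer_iff.1 hr.1 x hx.1).symm
      rw [mul_assoc a r x, hc]; group
  have hfix : ∀ x ∈ P1, (∃ j, csz x = p ^ j) → ∃ a ∈ P1, ∀ u ∈ Qs, Commute (a * x * a⁻¹) u := by
    intro x hx ⟨j, hj⟩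
    obtain ⟨g, hg⟩ := exists_conj_commute hQsq (x := x) fun h => by
      rw [hj] at h
      exact hqp ((Nat.prime_dvd_prime_iff_eq hq hp.out).1 (hq.dvd_of_dvd_pow h))
    obtain ⟨n, hn, k, hk, rfl⟩ := hfrat g
    obtain ⟨a, ha, hak⟩ := hKconj k hk x hx
    refine ⟨a, ha, fun u hu => ?_⟩
    have h := hnconj n⁻¹ (inv_mem hn) _ hg u hu
    rw [← hak, show k * x * k⁻¹ = n⁻¹ * (n * k * x * (n * k)⁻¹) * n⁻¹⁻¹ by group]
    exact h
  set CQ := Subgroup.centralizer (Qs : Set G)
  have hcommP1 : ∀ a ∈ P1, ∀ b ∈ P1, a * b * a⁻¹ * b⁻¹ ∈ CQ := by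
    set Z1 := Subgroup.centralizer (P1 : Set G) ⊓ P1
    set C1 := CQ ⊓ P1
    have hgen : P1 ≤ C1 ⊔ Z1 := by
      rw [← Subgroup.subgroupOf_eq_top]
      by_contra hne
      obtain ⟨⟨x, hx⟩, hxA⟩ := CfsgLib.ClassGraph.exists_forall_conj_notMem hne
      by_cases hpx : p ∣ csz x
      · have hxo : p ∣ orderOf x := by
          obtain ⟨i, hi⟩ := IsPGroup.iff_card.1 (hzpP1 x hx)
          rw [Nat.card_zpowers] at hi
          rw [hi]
          refine dvd_pow_self p fun hi0 => hp.out.not_dvd_one ?_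
          rw [hi0, pow_zero, orderOf_eq_one_iff] at hi
          subst hi
          have h1 : csz (1 : G) = 1 := Subgroup.index_eq_one.2 ((Subgroup.eq_top_iff' _).2
            fun g => mem_centralizer_singleton' (Commute.one_right g))
          rwa [h1] at hpx
        obtain ⟨a, ha, hau⟩ := hfix x hx (hxK x hx.1 hxo hpx).2
        refine hxA ⟨a, ha⟩ (Subgroup.mem_sup_left ⟨?_,
          (show a * x * a⁻¹ ∈ P1 from mul_mem (mul_mem ha hx) (inv_mem ha))⟩)
        exact Subgroup.mem_centralizer_iff.2 fun u hu => (hau u hu).symm.eq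
      · set Cx := Subgroup.centralizer ({x} : Set G)
        obtain ⟨R1⟩ : Nonempty (Sylow p Cx) := inferInstance
        have hR1p : IsPGroup p ((R1 : Subgroup Cx).map Cx.subtype) := R1.2.map _
        have hR1i : ¬ p ∣ ((R1 : Subgroup Cx).map Cx.subtype).index := by
          rw [Subgroup.index_map_subtype]
          exact fun h => (hp.out.dvd_mul.1 h).elim R1.not_dvd_index hpx
        have hP1R : P1 ≤ (R1 : Subgroup Cx).map Cx.subtype :=
          (CfsgLib.Cores.le_pCore hP1p).trans (CfsgLib.Cores.pCore_le_sylow (hR1p.toSylow hR1i))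
        refine hxA 1 (Subgroup.mem_sup_right ?_)
        simp only [one_mul, inv_one, mul_one]
        exact ⟨Subgroup.mem_centralizer_iff.2 fun b hb =>
          Subgroup.mem_centralizer_singleton_iff.1 (Subgroup.map_subtype_le _ (hP1R hb)), hx⟩
    have hnorm : Z1 ≤ Subgroup.normalizer (C1 : Set G) := by
      intro t ht
      refine Subgroup.mem_normalizer_iff.2 fun c => ?_
      have key : ∀ t ∈ Z1, ∀ c ∈ C1, t * c * t⁻¹ ∈ C1 := by
        intro t ht c hc
        have : c * t = t * c := Subgroup.mem_centralizer_iff.1 ht.1 c hc.2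
        rw [← this, mul_inv_cancel_right]; exact hc
      refine ⟨key t ht c, fun h => ?_⟩
      have := key t⁻¹ (inv_mem ht) _ h
      simpa [mul_assoc] using this
    intro a ha b hb
    have ha' := hgen ha
    have hb' := hgen hb
    rw [← SetLike.mem_coe, Subgroup.coe_mul_of_right_le_normalizer_left C1 Z1 hnorm] at ha' hb'
    obtain ⟨c1, hc1, z1, hz1, rfl⟩ := ha'
    obtain ⟨c2, hc2, z2, hz2, rfl⟩ := hb'
    have hzc : ∀ t ∈ P1, Commute z1 t ∧ Commute z2 t := fun t ht =>
      ⟨(Subgroup.mem_centralizer_iff.1 hz1.1 t ht).symm, (Subgroup.mem_centralizer_iff.1 hz2.1 t ht).symm⟩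
    have e1 : c1 * z1 * (c2 * z2) * (c1 * z1)⁻¹ = c1 * c2 * c1⁻¹ * z2 := by
      calc c1 * z1 * (c2 * z2) * (c1 * z1)⁻¹
          = c1 * (z1 * (c2 * z2) * z1⁻¹) * c1⁻¹ := by group
        _ = c1 * (c2 * z2) * c1⁻¹ := by
          rw [((hzc c2 hc2.2).1.mul_right (hzc z2 hz2.2).1).eq, mul_inv_cancel_right]
        _ = c1 * c2 * (z2 * c1⁻¹) := by group
        _ = c1 * c2 * c1⁻¹ * z2 := by
          rw [((hzc c1⁻¹ (inv_mem hc1.2)).2).eq]; group
    rw [e1, mul_inv_rev, ← mul_assoc, mul_inv_cancel_right]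
    exact mul_mem (mul_mem (mul_mem hc1.1 hc2.1) (inv_mem hc1.1)) (inv_mem hc2.1)
  -- the conjugates of `y` are centralised by `Qs`
  have hzP1 : z ∈ P1 := ⟨hzP, hzK⟩
  obtain ⟨a0, ha0, hz0⟩ := hfix z hzP1 ⟨jz, hjz⟩
  set z0 := a0 * z * a0⁻¹
  have hz0P : z0 ∈ P1 := mul_mem (mul_mem ha0 hzP1) (inv_mem ha0)
  have hz0C : z0 ∈ CQ := Subgroup.mem_centralizer_iff.2 fun u hu => (hz0 u hu).symm.eq
  have hz0S : z0 ∈ S := isConj_iff.2 ⟨a0, rfl⟩
  have hdC : ∀ g : G, y⁻¹ * (g * y * g⁻¹) ∈ CQ := by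
    intro g
    obtain ⟨h, hh⟩ := isConj_iff.1
      (((show IsConj z z0 from hz0S).symm).trans (hdmem g z0 hz0S))
    obtain ⟨n, hn, k, hk, rfl⟩ := hfrat h
    obtain ⟨a, ha, hak⟩ := hKconj k hk z0 hz0P
    have h1 : k * z0 * k⁻¹ ∈ CQ := by
      rw [hak]
      have := mul_mem (hcommP1 a ha z0 hz0P) hz0C
      rwa [inv_mul_cancel_right] at this
    have h2 : n * (k * z0 * k⁻¹) * n⁻¹ ∈ CQ := by
      refine Subgroup.mem_centralizer_iff.2 fun u hu => ?_
      exact (hnconj n hn _ (fun u hu => (Subgroup.mem_centralizer_iff.1 h1 u hu).symm) u hu).symm.eq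
    rw [show n * (k * z0 * k⁻¹) * n⁻¹ = n * k * z0 * (n * k)⁻¹ by group, hh] at h2
    have := mul_mem h2 (inv_mem hz0C)
    rwa [mul_inv_cancel_right] at this
  have hyQ : y ∈ CQ := by
    refine Subgroup.mem_centralizer_iff.2 fun u hu => ?_
    set d := y⁻¹ * (u * y * u⁻¹) with hd
    have hud : Commute u d := Subgroup.mem_centralizer_iff.1 (hdC u) u hu
    have hiter : ∀ n : ℕ, u ^ n * y * (u ^ n)⁻¹ = y * d ^ n := by
      intro n
      induction n with
      | zero => simp
      | succ n ih =>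
        calc u ^ (n + 1) * y * (u ^ (n + 1))⁻¹ = u * (u ^ n * y * (u ^ n)⁻¹) * u⁻¹ := by
              rw [pow_succ']; group
          _ = (u * y * u⁻¹) * (u * d ^ n * u⁻¹) := by rw [ih]; group
          _ = (y * d) * d ^ n := by
              rw [(hud.pow_right n).eq, mul_inv_cancel_right, hd, mul_inv_cancel_left]
          _ = y * d ^ (n + 1) := by rw [pow_succ']; group
    have hdn := hiter (orderOf u)
    rw [pow_orderOf_eq_one, one_mul, inv_one, mul_one, left_eq_mul] at hdn
    obtain ⟨i, hi⟩ := IsPGroup.iff_card.1 (hQsq.to_le (Subgroup.zpowers_le.2 hu))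
    rw [Nat.card_zpowers] at hi
    have hd1 : d = 1 := orderOf_eq_one_iff.1 (Nat.eq_one_of_dvd_coprimes
      (((Nat.coprime_primes hq hp.out).2 hqp).pow_left i) (hi ▸ orderOf_dvd_of_pow_eq_one hdn)
      (orderOf_dvd_of_pow_eq_one (hdp u)))
    rw [hd, inv_mul_eq_one] at hd1
    exact (mul_inv_eq_iff_eq_mul.1 hd1.symm)
  have hQsK : Qs ≤ K := fun u hu => hmemK u fun g => by
    have := mul_mem hyQ (hdC g)
    rw [mul_inv_cancel_left] at this
    exact Subgroup.mem_centralizer_iff.1 this u hu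
  refine hQ ?_
  rw [← Subgroup.map_comap_eq_self_of_surjective (f := π) (QuotientGroup.mk'_surjective K)
    (pCore q (G ⧸ K)), Subgroup.map_eq_bot_iff, QuotientGroup.ker_mk']
  exact hLeq.trans (sup_le le_rfl hQsK)

/-- Two elements of order `p` have class sizes with equal or adjacent prime divisors. -/
theorem exists_linked (hZ : ¬ p ∣ Nat.card (Subgroup.center G)) {z1 z2 : G}
    (h1 : orderOf z1 = p) (h2 : orderOf z2 = p) :
    ∃ a b : ℕ, a.Prime ∧ b.Prime ∧ a ∣ csz z1 ∧ b ∣ csz z2 ∧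
      (a = b ∨ ∃ x : G, p ∣ orderOf x ∧ a ∣ csz x ∧ b ∣ csz x) := by
  by_contra hcon
  push Not at hcon
  have hne : ∀ a b, a.Prime → b.Prime → a ∣ csz z1 → b ∣ csz z2 → a ≠ b := fun a b ha hb h h' =>
    (hcon a b ha hb h h').1
  have hcop : (csz z1).Coprime (csz z2) :=
    Nat.coprime_of_dvd fun r hr h h' => hne r r hr hr h h' rfl
  have hno : ∀ x : G, p ∣ orderOf x → (csz x).Coprime (csz z1) ∨ (csz x).Coprime (csz z2) := by
    intro x hx
    by_contra hc
    rw [not_or, Nat.Prime.not_coprime_iff_dvd, Nat.Prime.not_coprime_iff_dvd] at hc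
    obtain ⟨⟨a, ha, hax, ha1⟩, b, hb, hbx, hb2⟩ := hc
    exact (hcon a b ha hb ha1 hb2).2 x hx hax hbx
  -- a version for either order of the two elements
  have key : ∀ u v : G, orderOf u = p → orderOf v = p → ¬ p ∣ csz u → (csz u).Coprime (csz v) →
      (∀ x : G, p ∣ orderOf x → (csz x).Coprime (csz u) ∨ (csz x).Coprime (csz v)) → False := by
    intro u v hu hv hpu hc hn
    set Cu := Subgroup.centralizer ({u} : Set G)
    have hvp : IsPGroup p (Subgroup.zpowers v) :=
      IsPGroup.of_card (n := 1) (by rw [Nat.card_zpowers, hv, pow_one])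
    have hi : ¬ p ∣ Nat.card (G ⧸ Cu) := hpu
    obtain ⟨g, hg⟩ := exists_conj_commute hvp (x := u) hi
    have hu' : orderOf (g * u * g⁻¹) = p := by
      rw [← hu]
      exact (SemiconjBy.orderOf_eq g (by simp [SemiconjBy])).symm
    have hcm : Commute (g * u * g⁻¹) v := hg v (Subgroup.mem_zpowers v)
    rw [← csz_conj u g] at hc hn
    rcases Nat.lt_trichotomy (csz (g * u * g⁻¹)) (csz v) with h | h | h
    · exact false_of_separated hZ hu' hv hcm h hc hn
    · rw [h, Nat.coprime_self] at hc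
      exact csz_ne_one hZ hv hc
    · exact false_of_separated hZ hv hu' hcm.symm h hc.symm fun x hx => (hn x hx).symm
  by_cases hp1 : p ∣ csz z1
  · refine key z2 z1 h2 h1 (fun h => ?_) hcop.symm fun x hx => (hno x hx).symm
    exact hp.out.not_dvd_one (hcop ▸ Nat.dvd_gcd hp1 h)
  · exact key z1 z2 h1 h2 hp1 hcop hno

end CfsgLib.Components2.SingularGraph
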